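import Cfsg.Agent.Lib.Helper93.M11U.Defs
import Cfsg.Agent.Lib.Helper91.M11Inv
import Cfsg.Agent.Lib.Helper67.M11U.F20Core

/-!
# S0420 package [F20]: `N(⟨f⟩)` fixes the whole fixed space of `⟨f⟩` in `χa`
-/

set_option autoImplicit false

namespace Cfsg.Agent.Lib.Helper67.M11U

open Cfsg.Agent.Lib.Helper93.M11U

universe u

theorem pkgF20 : PkgF20.{u} := by
  intro G _ _ T hsimple hG C hY hYs hS hFD
  obtain ⟨s, hs, hsu⟩ := hS
  obtain ⟨hYc, -, hNY, hNc⟩ := hY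
  have hcf : ∀ g h : G, (T.χa : G → ℂ) (h * g * h⁻¹) = (T.χa : G → ℂ) g := by
    obtain ⟨n, ρ, -, hρ⟩ := T.χa.2
    intro g h
    rw [← hρ]
    exact ρ.char_conj g h
  have hchar : Cfsg.IsCharacter G (T.χa : G → ℂ) := by
    obtain ⟨n, ρ, -, hρ⟩ := T.χa.2
    exact ⟨n, ρ, hρ⟩
  have hcent : ∀ w : G, w * C.f = C.f * w → w ∈ Subgroup.zpowers C.f := by
    have : Fact (Nat.Prime 5) := ⟨by norm_num⟩
    have hp : IsPGroup 5 (Subgroup.zpowers C.f) :=
      IsPGroup.of_card (n := 1) (by rw [Nat.card_zpowers, C.hf]; norm_num)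
    obtain ⟨P, hP⟩ := hp.exists_le_sylow
    obtain ⟨hPc, -, hPcent, -⟩ := Cfsg.Agent.Lib.Helper91.M11.sylow5_full hG P
    have hPeq : Subgroup.zpowers C.f = (P : Subgroup G) :=
      Subgroup.eq_of_le_of_card_ge hP (by rw [hPc, Nat.card_zpowers, C.hf])
    intro w hw
    rw [hPeq, ← hPcent, Subgroup.mem_centralizer_iff]
    intro x hx
    have hx' : x ∈ Subgroup.zpowers C.f := by rw [hPeq]; exact hx
    obtain ⟨k, rfl⟩ := Subgroup.mem_zpowers_iff.mp hx'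
    exact ((show Commute C.f w from hw.symm).zpow_left k).eq
  exact f20_core (T.χa : G → ℂ) hcf (hFD G _ hchar) C.f C.u s C.hf C.hu C.hun hcent hNc (Y0 C)
    hNY hYc hYs hs hsu T.deg.2.2.1 (fun t ht => (T.v2 t ht).2.2.1)
    (fun z hz => (T.v5 z hz).2.2.1)

example : PkgF20.{3} := pkgF20
example : PkgF20.{0} := pkgF20

end Cfsg.Agent.Lib.Helper67.M11U
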